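import Cfsg.Agent.FGS4.M12Schur.Data

/-! The double cover of `M₁₂` by signed permutations preserving a ternary code. -/

set_option autoImplicit false
set_option maxHeartbeats 2000000

namespace Cfsg.Agent.FGS4.M12Schur

open Cfsg.Agent.Golay
open scoped Pointwise

/-- A signed permutation code. -/
def l_c0 : ℕ := 483033474340127187637317381032425473
/-- A signed permutation code. -/
def l_c1 : ℕ := 801337386265379886300514298974439456
/-- A signed permutation code. -/
def l_c2 : ℕ := 227514388872672850604029602465252804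
/-- A signed permutation code. -/
def l_c3 : ℕ := 759805119431751795130309886445979649
/-- A signed permutation code. -/
def l_c4 : ℕ := 469029739356660428306075441133010945
/-- A signed permutation code. -/
def l_c5 : ℕ := 291299420043011339957184415923315370
/-- A signed permutation code. -/
def l_u3 : ℕ := 380581063870755344542181419492134280
/-- A signed permutation code. -/
def l_v3 : ℕ := 796173685222188914208947331121103490
/-- A signed permutation code. -/
def l_p5 : ℕ := 626525346646447620582455654047172932
/-- A signed permutation code. -/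
def l_p11 : ℕ := 379282734187687838721609002056726755
/-- The sign change. -/
def tauC : ℕ := 470278375199658062065627471303653804

/-- The signed supports of the weight six words. -/
def words : List ℕ :=
  [7079968, 8521408, 2100560, 8913712, 4587920, 13959680, 1639520, 3344512, 1576456, 9699496, 7471176, 13107288, 2098360, 395800, 2949384, 8586504, 14713216, 296736, 690496, 1082064, 5277744, 363648, 10584160, 4948480, 12058692, 5243556, 1444868, 787988, 2292, 14811156, 4786436, 197444, 1484, 2099500, 1703964, 8454796, 4522028, 4229700, 8946724, 2523268, 8683796, 3245060, 281472, 12599648, 2770176, 9454736, 3424304, 6373568, 85536, 9388032, 10765320, 541288, 4343944, 4211480, 1132616, 6078464, 9617920, 2672656, 181328, 115104, 9176322, 2097634, 4328194, 7864338, 9568338, 592450, 12648610, 2556930, 4457098, 3178, 11141130, 2458, 1114666, 3442690, 1213570, 8422930, 819250, 4292930, 2100358, 8651302, 4849734, 1334, 1376390, 13631502, 2097246, 557830, 231430, 1066562, 1591330, 4474898, 148114, 10567938, 409866, 607242, 8437954, 6340642,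 5253312, 11543584, 1974784, 10756240, 4203120, 666640, 75648, 338208, 8397640, 4727080, 1319960, 6367240, 205000, 2663488, 43680, 13017088, 2269456, 10067968, 6562052, 8528260, 1059348, 8463428, 2695204, 796684, 140812, 1089636, 4235412, 13132288, 287904, 2254912, 549200, 5464064, 3170440, 8413240, 60672, 385536, 4719425, 3489, 10879233, 1837073, 1181201, 11076609, 328353, 4393025, 2099401, 12583465, 918537, 377, 5308553, 9471041, 3702817, 6586385, 8552593, 101121, 12845189, 2098277, 657925, 2097557, 9502757, 1311245, 3101, 4358405, 622661, 7358465, 1196225, 8405585, 4735025, 345345, 8929545, 2310153, 50817, 313377, 9437827, 5505059, 1235, 2099251, 721155, 2098443, 8716299, 4753411, 164419, 2375, 4260359, 175, 2899971, 8537091, 1097747, 273921, 8921185, 6430849, 12591377, 3219521, 1189897, 533017, 303489, 107553, 1582085, 401429, 10526725, 25377, 92289, 4218953, 3413120, 1055328, 14290944, 4201104, 8655920, 2756688, 8458688, 6361376, 4462856, 136072, 11538456, 71240, 596008, 9212416, 4231392, 2268160, 562448, 1544192, 8394500, 790820,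 5247060, 2430980, 201860, 6819852, 8523852, 1087620, 37428, 547904, 10506400, 4608512, 153872, 1659392, 1070120, 282776, 2150720, 12701696, 14684226, 529954, 399490, 267026, 1121282, 1577034, 4329498, 8425762, 2199682, 3280902, 8917014, 300038, 4215170, 86114, 23050, 2636032, 144704, 1061040, 5058560, 8598016, 8402056, 2371624, 5288448, 47184, 12996, 4208676, 78092, 9728000, 2126864, 716800]

/-- The twelve points, as indices. -/
def dList : List ℕ := [0, 1, 2, 3, 4, 6, 8, 9, 12, 13, 16, 18]

/-- The point below a signed position. -/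
noncomputable def dpt (i : ℕ) : GolayPt := pt (dList.getD (i % 12) 0)

/-- The other sign. -/
def flipIdx (i : ℕ) : ℕ := (i + 12) % 24

/-- The unsigned support of a mask. -/
def supp12 (w : ℕ) : ℕ := (w % 2 ^ 12) ||| (w / 2 ^ 12)

/-- A compatible pair: signed code and point code. -/
def okPair (l m : ℕ) : Bool :=
  permOK l && (words.all fun w => words.contains (mapMask l w)) &&
    ((List.range 24).all fun i => app m (dList.getD (i % 12) 0) == dList.getD (app l i % 12) 0 &&
      app l (app tauC i) == app tauC (app l i))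

theorem pairs_ok : ([(l_c0, c0), (l_c1, c1), (l_c2, c2), (l_c3, c3), (l_c4, c4), (l_c5, c5), (l_u3, u3), (l_v3, v3), (l_p5, p5), (l_p11, p11)] : List (ℕ × ℕ)).all
    (fun q => okPair q.1 q.2) = true := by
  decide +kernel

theorem tau_ok : permOK tauC = true ∧ (∀ i < 24, app tauC i = flipIdx i) ∧
    ((List.range 24).all fun i => evalW [l_c2, l_c2] i == flipIdx i) = true := by
  decide +kernel

theorem dList_ok : (∀ i < 12, dList.getD i 0 < 24) ∧
    ∀ i < 12, ∀ j < 12, dList.getD i 0 = dList.getD j 0 → i = j := by
  decide +kernel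

theorem rigid : ((words.filter fun w => w.testBit 0).all fun w => words.all fun w' =>
    !(supp12 w' == supp12 w) || w' == w || w' == mapMask tauC w) = true := by
  decide +kernel

theorem cover_all : ∀ i < 24, i = 12 ∨ (words.any fun w => w.testBit i && w.testBit 0) = true := by
  decide +kernel

theorem no_both : (words.all fun w => (List.range 24).all fun i =>
    !(w.testBit i && w.testBit (flipIdx i))) = true := by
  decide +kernel

theorem words_lt : ∀ w ∈ words, w < 2 ^ 24 := by
  decide +kernel

/-- The invariants of the cover. -/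
def Inv (q : Equiv.Perm GolayPt × Cfsg.Spor.M12) : Prop :=
  (∀ w ∈ words, ∃ w' ∈ words, q.1 • bset w = bset w') ∧
    (∀ p, (q.2 : Equiv.Perm GolayPt) (dpt (idx p)) = dpt (idx (q.1 p))) ∧
    q.1 * permOf tauC = permOf tauC * q.1

/-- The double cover. -/
noncomputable def cov : Subgroup (Equiv.Perm GolayPt × Cfsg.Spor.M12) :=
  Subgroup.closure {(permOf l_c0, g_c0), (permOf l_c1, g_c1), (permOf l_c2, g_c2), (permOf l_c3, g_c3), (permOf l_c4, g_c4), (permOf l_c5, g_c5), (permOf l_u3, g_u3), (permOf l_v3, g_v3), (permOf l_p5, g_p5), (permOf l_p11, g_p11)}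

theorem cov_inv_one : Inv 1 :=
  ⟨fun w hw => ⟨w, hw, one_smul _ _⟩, fun _ => rfl, by rw [Prod.fst_one, one_mul, mul_one]⟩

theorem inv_mul {a b : Equiv.Perm GolayPt × Cfsg.Spor.M12} (ha : Inv a) (hb : Inv b) : Inv (a * b) := by
  refine ⟨fun w hw => ?_, fun p => ?_, ?_⟩
  · obtain ⟨w1, hw1, e1⟩ := hb.1 w hw
    obtain ⟨w2, hw2, e2⟩ := ha.1 w1 hw1
    exact ⟨w2, hw2, by rw [Prod.fst_mul, mul_smul, e1, e2]⟩
  · show (a.2 : Equiv.Perm GolayPt) ((b.2 : Equiv.Perm GolayPt) (dpt (idx p))) = _
    rw [hb.2.1, ha.2.1]
    rfl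
  · rw [Prod.fst_mul, mul_assoc, hb.2.2, ← mul_assoc, ha.2.2, mul_assoc]

theorem inv_of_pair {l m : ℕ} (h : okPair l m = true) (hm : m ∈ allCodes) : Inv (permOf l, el m hm) := by
  simp only [okPair, Bool.and_eq_true, List.all_eq_true, beq_iff_eq] at h
  obtain ⟨⟨hl, hw⟩, hi⟩ := h
  refine ⟨fun w hw' => ⟨mapMask l w, by simpa using hw w hw', (bset_mapMask hl w).symm⟩, fun p => ?_, ?_⟩
  · show permOf m (dpt (idx p)) = dpt (idx (permOf l p))
    rw [idx_permOf hl, dpt, dpt, permOf_pt (code_mem hm).1 (dList_ok.1 _ (Nat.mod_lt _ (by norm_num))),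
      (hi _ (List.mem_range.2 (idx_lt p))).1]
  · apply Equiv.Perm.ext
    intro p
    apply idx_injective
    show idx (permOf l (permOf tauC p)) = idx (permOf tauC (permOf l p))
    rw [idx_permOf hl, idx_permOf tau_ok.1, idx_permOf tau_ok.1, idx_permOf hl,
      (hi _ (List.mem_range.2 (idx_lt p))).2]

theorem inv_cov {q : Equiv.Perm GolayPt × Cfsg.Spor.M12} (hq : q ∈ cov) : Inv q := by
  have hp := List.all_eq_true.1 pairs_ok
  induction hq using Subgroup.closure_induction with
  | mem x hx =>
    simp only [Set.mem_insert_iff, Set.mem_singleton_iff] at hx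
    rcases hx with rfl | rfl | rfl | rfl | rfl | rfl | rfl | rfl | rfl | rfl
    · exact inv_of_pair (hp (l_c0, c0) (List.mem_of_getElem? (i := 0) rfl)) mem_c0
    · exact inv_of_pair (hp (l_c1, c1) (List.mem_of_getElem? (i := 1) rfl)) mem_c1
    · exact inv_of_pair (hp (l_c2, c2) (List.mem_of_getElem? (i := 2) rfl)) mem_c2
    · exact inv_of_pair (hp (l_c3, c3) (List.mem_of_getElem? (i := 3) rfl)) mem_c3
    · exact inv_of_pair (hp (l_c4, c4) (List.mem_of_getElem? (i := 4) rfl)) mem_c4
    · exact inv_of_pair (hp (l_c5, c5) (List.mem_of_getElem? (i := 5) rfl)) mem_c5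
    · exact inv_of_pair (hp (l_u3, u3) (List.mem_of_getElem? (i := 6) rfl)) mem_u3
    · exact inv_of_pair (hp (l_v3, v3) (List.mem_of_getElem? (i := 7) rfl)) mem_v3
    · exact inv_of_pair (hp (l_p5, p5) (List.mem_of_getElem? (i := 8) rfl)) mem_p5
    · exact inv_of_pair (hp (l_p11, p11) (List.mem_of_getElem? (i := 9) rfl)) mem_p11
  | one => exact cov_inv_one
  | mul x y hx hy ihx ihy => exact inv_mul ihx ihy
  | inv x hx ihx =>
    have hpow : ∀ n : ℕ, Inv (x ^ n) := fun n => by
      induction n with
      | zero => rw [pow_zero]; exact cov_inv_one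
      | succ n ih => rw [pow_succ]; exact inv_mul ih ihx
    have hx1 : x⁻¹ = x ^ (orderOf x - 1) := by
      refine inv_eq_of_mul_eq_one_right ?_
      rw [← pow_succ', Nat.sub_add_cancel (orderOf_pos x), pow_orderOf_eq_one]
    rw [hx1]
    exact hpow _

theorem testBit_supp12 (w : ℕ) {k : ℕ} (hk : k < 12) :
    (supp12 w).testBit k = (w.testBit k || w.testBit (k + 12)) := by
  rw [supp12, Nat.testBit_or, Nat.testBit_mod_two_pow, Nat.testBit_div_two_pow]
  simp [hk, add_comm]

theorem supp12_lt {w : ℕ} (hw : w < 2 ^ 24) : supp12 w < 2 ^ 12 :=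
  Nat.or_lt_two_pow (Nat.mod_lt _ (by norm_num)) (Nat.div_lt_of_lt_mul (by
    rwa [← pow_add]))

theorem ker_eq {q : Equiv.Perm GolayPt × Cfsg.Spor.M12} (hq : q ∈ cov) (h2 : q.2 = 1) :
    q.1 = 1 ∨ q.1 = permOf tauC := by
  obtain ⟨hw, hd, hc⟩ := inv_cov hq
  have hmod : ∀ p, idx (q.1 p) % 12 = idx p % 12 := fun p => by
    have h := hd p
    rw [h2] at h
    have h' : idx (dpt (idx p)) = idx (dpt (idx (q.1 p))) := congrArg idx h
    rw [dpt, dpt, idx_pt (dList_ok.1 _ (Nat.mod_lt _ (by norm_num))),
      idx_pt (dList_ok.1 _ (Nat.mod_lt _ (by norm_num)))] at h'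
    exact (dList_ok.2 _ (Nat.mod_lt _ (by norm_num)) _ (Nat.mod_lt _ (by norm_num)) h').symm
  have hcase : ∀ p, idx (q.1 p) = idx p ∨ idx (q.1 p) = flipIdx (idx p) := fun p => by
    have := hmod p
    have := idx_lt p
    have := idx_lt (q.1 p)
    unfold flipIdx
    omega
  have hflip : ∀ p, idx (permOf tauC p) = flipIdx (idx p) := fun p => by
    rw [idx_permOf tau_ok.1, tau_ok.2.1 _ (idx_lt p)]
  have key : ∀ w ∈ words, w.testBit 0 = true →
      (∀ i, w.testBit i = true → i < 24 → q.1 (pt i) = pt i) ∨
      (∀ i, w.testBit i = true → i < 24 → q.1 (pt i) = permOf tauC (pt i)) := by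
    intro w hwm h0
    obtain ⟨w', hw', e⟩ := hw w hwm
    have hs : supp12 w' = supp12 w := by
      refine Nat.eq_of_testBit_eq fun k => ?_
      by_cases hk : k < 12
      · rw [testBit_supp12 _ hk, testBit_supp12 _ hk, Bool.eq_iff_iff, Bool.or_eq_true, Bool.or_eq_true]
        constructor
        · intro h
          have h' : ∃ j, w'.testBit j = true ∧ j % 12 = k ∧ j < 24 := by
            rcases h with h | h
            · exact ⟨k, h, Nat.mod_eq_of_lt hk, by omega⟩
            · exact ⟨k + 12, h, by omega, by omega⟩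
          obtain ⟨j, hj, hjk, hj24⟩ := h'
          have hjm : pt j ∈ bset w' := mem_bset.2 (by rw [idx_pt hj24]; exact hj)
          rw [← e, Finset.mem_smul_finset] at hjm
          obtain ⟨p, hp, hpe⟩ := hjm
          have hpb := mem_bset.1 hp
          have hm := hmod p
          rw [← Equiv.Perm.smul_def, hpe, idx_pt hj24, hjk] at hm
          have := idx_lt p
          rcases (show idx p = k ∨ idx p = k + 12 by omega) with hh | hh
          · exact Or.inl (hh ▸ hpb)
          · exact Or.inr (hh ▸ hpb)
        · intro h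
          have h' : ∃ j, w.testBit j = true ∧ j % 12 = k ∧ j < 24 := by
            rcases h with h | h
            · exact ⟨k, h, Nat.mod_eq_of_lt hk, by omega⟩
            · exact ⟨k + 12, h, by omega, by omega⟩
          obtain ⟨j, hj, hjk, hj24⟩ := h'
          have hjm : q.1 (pt j) ∈ bset w' := by
            rw [← e]
            exact Finset.mem_smul_finset.2 ⟨pt j, mem_bset.2 (by rw [idx_pt hj24]; exact hj), rfl⟩
          have hpb := mem_bset.1 hjm
          have hm := hmod (pt j)
          rw [idx_pt hj24, hjk] at hm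
          have := idx_lt (q.1 (pt j))
          rcases (show idx (q.1 (pt j)) = k ∨ idx (q.1 (pt j)) = k + 12 by omega) with hh | hh
          · exact Or.inl (hh ▸ hpb)
          · exact Or.inr (hh ▸ hpb)
      · have lt : ∀ x ∈ words, (supp12 x).testBit k = false := fun x hx => Nat.testBit_lt_two_pow
          ((supp12_lt (words_lt x hx)).trans_le (Nat.pow_le_pow_right (by norm_num) (by omega)))
        rw [lt w' hw', lt w hwm]
    have hr := List.all_eq_true.1 (List.all_eq_true.1 rigid w (List.mem_filter.2 ⟨hwm, h0⟩)) w' hw'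
    simp only [Bool.or_eq_true, Bool.not_eq_true', beq_eq_false_iff_ne, beq_iff_eq] at hr
    have hnb : ∀ i, i < 24 → w.testBit i = true → w.testBit (flipIdx i) = false := fun i hi hb => by
      have := List.all_eq_true.1 (List.all_eq_true.1 no_both w hwm) i (List.mem_range.2 hi)
      simpa [hb] using this
    rcases hr with (hr | hr) | hr
    · exact absurd hs hr
    · refine Or.inl fun i hi hi24 => ?_
      subst hr
      have hm : q.1 (pt i) ∈ q.1 • bset w' :=
        Finset.mem_smul_finset.2 ⟨pt i, mem_bset.2 (by rw [idx_pt hi24]; exact hi), rfl⟩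
      rw [e] at hm
      rcases hcase (pt i) with h | h
      · exact idx_injective h
      · have hb := mem_bset.1 hm
        rw [h, idx_pt hi24, hnb i hi24 hi] at hb
        exact absurd hb (by simp)
    · refine Or.inr fun i hi hi24 => ?_
      have hm : q.1 (pt i) ∈ permOf tauC • bset w := by
        rw [← bset_mapMask tau_ok.1, ← hr, ← e]
        exact Finset.mem_smul_finset.2 ⟨pt i, mem_bset.2 (by rw [idx_pt hi24]; exact hi), rfl⟩
      obtain ⟨p, hp, hpe⟩ := Finset.mem_smul_finset.1 hm
      rw [Equiv.Perm.smul_def] at hpe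
      rcases hcase (pt i) with h | h
      · exfalso
        have hb := mem_bset.1 hp
        have hf : flipIdx (idx p) = i := by rw [← hflip, hpe, h, idx_pt hi24]
        have hp' : idx p = flipIdx i := by
          have := idx_lt p
          unfold flipIdx at hf ⊢
          omega
        rw [hp', hnb i hi24 hi] at hb
        exact absurd hb (by simp)
      · exact idx_injective (by rw [h, hflip])
  have h12 : pt 12 = permOf tauC (pt 0) := by
    apply idx_injective
    rw [hflip, idx_pt (by norm_num), idx_pt (by norm_num)]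
    rfl
  rcases hcase (pt 0) with h0 | h0
  · left
    refine Equiv.Perm.ext fun p => ?_
    have hp0 : q.1 (pt 0) = pt 0 := idx_injective h0
    rcases cover_all (idx p) (idx_lt p) with hi | hi
    · rw [← pt_idx p, hi, h12, ← Equiv.Perm.mul_apply, hc, Equiv.Perm.mul_apply, hp0]
      rfl
    · obtain ⟨w, hwm, hb⟩ := List.any_eq_true.1 hi
      rw [Bool.and_eq_true] at hb
      rcases key w hwm hb.2 with h | h
      · rw [← pt_idx p]; exact h _ hb.1 (idx_lt p)
      · exfalso
        have := congrArg idx (h 0 hb.2 (by norm_num))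
        rw [hp0, hflip, idx_pt (by norm_num)] at this
        exact absurd this (by decide)
  · right
    refine Equiv.Perm.ext fun p => ?_
    have hp0 : q.1 (pt 0) = permOf tauC (pt 0) := idx_injective (by rw [h0, hflip])
    rcases cover_all (idx p) (idx_lt p) with hi | hi
    · rw [← pt_idx p, hi, h12, ← Equiv.Perm.mul_apply, hc, Equiv.Perm.mul_apply, hp0]
    · obtain ⟨w, hwm, hb⟩ := List.any_eq_true.1 hi
      rw [Bool.and_eq_true] at hb
      rcases key w hwm hb.2 with h | h
      · exfalso
        have := congrArg idx (h 0 hb.2 (by norm_num))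
        rw [hp0, hflip, idx_pt (by norm_num)] at this
        exact absurd this (by decide)
      · rw [← pt_idx p]; exact h _ hb.1 (idx_lt p)

theorem tau_sq : permOf l_c2 * permOf l_c2 = permOf tauC := by
  have hok : permOK l_c2 = true := by
    have h := List.all_eq_true.1 pairs_ok (l_c2, c2) (List.mem_of_getElem? (i := 2) rfl)
    simp only [okPair, Bool.and_eq_true] at h
    exact h.1.1
  refine Equiv.Perm.ext fun p => idx_injective ?_
  rw [Equiv.Perm.mul_apply, idx_permOf hok, idx_permOf hok, idx_permOf tau_ok.1, tau_ok.2.1 _ (idx_lt p)]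
  exact beq_iff_eq.1 (List.all_eq_true.1 tau_ok.2.2 _ (List.mem_range.2 (idx_lt p)))

theorem tau_ne : permOf tauC ≠ 1 := by
  intro h
  have := idx_permOf tau_ok.1 (pt 0)
  rw [h, Equiv.Perm.one_apply, tau_ok.2.1 _ (idx_lt _), idx_pt (by norm_num)] at this
  exact absurd this (by decide)

theorem tau_invol : permOf tauC * permOf tauC = 1 := by
  refine Equiv.Perm.ext fun p => idx_injective ?_
  rw [Equiv.Perm.mul_apply, Equiv.Perm.one_apply, idx_permOf tau_ok.1, idx_permOf tau_ok.1,
    tau_ok.2.1 _ (idx_lt p), tau_ok.2.1 (flipIdx (idx p)) (Nat.mod_lt _ (by norm_num))]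
  unfold flipIdx
  have := idx_lt p
  omega

theorem mem_cov_c0 : (permOf l_c0, g_c0) ∈ cov := Subgroup.subset_closure (by simp)

theorem mem_cov_c1 : (permOf l_c1, g_c1) ∈ cov := Subgroup.subset_closure (by simp)

theorem mem_cov_c2 : (permOf l_c2, g_c2) ∈ cov := Subgroup.subset_closure (by simp)

theorem mem_cov_c3 : (permOf l_c3, g_c3) ∈ cov := Subgroup.subset_closure (by simp)

theorem mem_cov_c4 : (permOf l_c4, g_c4) ∈ cov := Subgroup.subset_closure (by simp)

theorem mem_cov_c5 : (permOf l_c5, g_c5) ∈ cov := Subgroup.subset_closure (by simp)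

theorem mem_cov_u3 : (permOf l_u3, g_u3) ∈ cov := Subgroup.subset_closure (by simp)

theorem mem_cov_v3 : (permOf l_v3, g_v3) ∈ cov := Subgroup.subset_closure (by simp)

theorem mem_cov_p5 : (permOf l_p5, g_p5) ∈ cov := Subgroup.subset_closure (by simp)

theorem mem_cov_p11 : (permOf l_p11, g_p11) ∈ cov := Subgroup.subset_closure (by simp)

end Cfsg.Agent.FGS4.M12Schur
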