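import Cfsg.Agent.Golay.Mathieu

/-! Certificates for the Schur multiplier of `M₁₂`. -/

set_option autoImplicit false
set_option maxHeartbeats 4000000

namespace Cfsg.Agent.FGS4.M12Schur

open Cfsg.Agent.Golay
open scoped Pointwise

/-- A permutation code. -/
def c0 : ℕ := 425347703194539426542169931064444929
/-- A permutation code. -/
def c1 : ℕ := 944569772236290697579231267829188640
/-- A permutation code. -/
def c2 : ℕ := 424941366851731984262250597292966980
/-- A permutation code. -/
def c3 : ℕ := 984573615201180725592165913404213249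
/-- A permutation code. -/
def c4 : ℕ := 944334554731352033220641466060509185
/-- A permutation code. -/
def c5 : ℕ := 720722047737927215215618850867524016
/-- A permutation code. -/
def a0 : ℕ := 479401938236089568762990931271028237
/-- A permutation code. -/
def a1 : ℕ := 424941366851731984262250597292966980
/-- A permutation code. -/
def b0 : ℕ := 944334554731352033220641466060509185
/-- A permutation code. -/
def b1 : ℕ := 984566683746431385254647554273021953
/-- A permutation code. -/
def b2 : ℕ := 944164689705519933737570047316033666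
/-- A permutation code. -/
def h0 : ℕ := 479949573855463854093903710546769296
/-- A permutation code. -/
def h1 : ℕ := 943917396011938938964999582990741810
/-- A permutation code. -/
def h2 : ℕ := 892357851106341144650395885265552969
/-- A permutation code. -/
def h3 : ℕ := 588868512864696838376925939468907794
/-- A permutation code. -/
def h4 : ℕ := 984566683746431385254647554273021953
/-- A permutation code. -/
def h5 : ℕ := 859915423674024722534427532974039328
/-- A permutation code. -/
def h6 : ℕ := 479941599162890303567674827961844109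
/-- A permutation code. -/
def h7 : ℕ := 891998241525884740191853865374780484
/-- A permutation code. -/
def h8 : ℕ := 443340181205095000611439797405332521
/-- A permutation code. -/
def h9 : ℕ := 838131718475249427620256801822548076
/-- A permutation code. -/
def h10 : ℕ := 479587337058390677349150147601238322
/-- A permutation code. -/
def h11 : ℕ := 304376389898203242125061495449881601
/-- A permutation code. -/
def h12 : ℕ := 731677114492149167701777839543173170
/-- A permutation code. -/
def h13 : ℕ := 855653162907116813444143463423839816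
/-- A permutation code. -/
def h14 : ℕ := 470500142879663804588532251215630608
/-- A permutation code. -/
def h15 : ℕ := 920805518964982934590936082603454544
/-- A permutation code. -/
def k4x0 : ℕ := 304383412539821291079733571624636448
/-- A permutation code. -/
def k4x1 : ℕ := 607711345367623428041124733748052168
/-- A permutation code. -/
def k4x2 : ℕ := 944170664081654179467691494016747649
/-- A permutation code. -/
def k4x3 : ℕ := 425301255456958234591258018897306886
/-- A permutation code. -/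
def k4x4 : ℕ := 637663401288317428839234141599861960
/-- A permutation code. -/
def k4x5 : ℕ := 944407595673183706414495768542515265
/-- A permutation code. -/
def k4x6 : ℕ := 645455654765004676030520106600761929
/-- A permutation code. -/
def k0x0 : ℕ := 591497986658848259091310373330229283
/-- A permutation code. -/
def k0x1 : ℕ := 442216312697067564587976502324346956
/-- A permutation code. -/
def k0x2 : ℕ := 892230339773869420725669232382086212
/-- A permutation code. -/
def u3 : ℕ := 440999616487974581307780748221621260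
/-- A permutation code. -/
def v3 : ℕ := 942049920403141008631410321688891778
/-- A permutation code. -/
def w3 : ℕ := 843965845289861292933919211721426344
/-- A permutation code. -/
def gu : ℕ := 221508912382733261997789735063499336
/-- A permutation code. -/
def gv : ℕ := 638153267914982814911842944382350418
/-- A permutation code. -/
def p5 : ℕ := 606510167618792361644354634614055428
/-- A permutation code. -/
def p11 : ℕ := 983472706060676774314653543525714211

/-- The word relations. -/
def rels : List (List ℕ × List ℕ) :=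
  [([c0, c0], []),
    ([c0, c1, c0], [c1]),
    ([c0, c2, c0], [c1, c2, c4]),
    ([c0, c3, c0], [c1, c3]),
    ([c0, c4, c0], [c4]),
    ([c0, c5, c0], [c1, c2, c3, c5]),
    ([c1, c1], []),
    ([c1, c2, c1], [c2]),
    ([c1, c3, c1], [c3]),
    ([c1, c4, c1], [c4]),
    ([c1, c5, c1], [c4, c5]),
    ([c2, c2], []),
    ([c2, c3, c2], [c3, c4]),
    ([c2, c4, c2], [c4]),
    ([c2, c5, c2], [c5]),
    ([c3, c3], []),
    ([c3, c4, c3], [c4]),
    ([c3, c5, c3], [c5]),
    ([c4, c4], []),
    ([c4, c5, c4], [c5]),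
    ([c5, c5], []),
    ([a0, a0], []),
    ([b0, b0], []),
    ([u3, u3, u3], []),
    ([v3, v3, v3], []),
    ([w3, w3, w3], []),
    ([u3, v3], [w3, v3, u3]),
    ([u3, w3], [w3, u3]),
    ([v3, w3], [w3, v3]),
    ([u3, gu, u3], [gu]),
    ([gu, w3], [w3, gu]),
    ([v3, gv, v3], [gv]),
    ([gv, w3], [w3, gv]),
    ([p5, p5, p5, p5, p5], []),
    ([p11, p11, p11, p11, p11, p11, p11, p11, p11, p11, p11], [])]

/-- The conjugacy certificates: representative, word, conjugating element. -/
def certs : List (ℕ × List ℕ × ℕ) :=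
  [(b0, [c0], h0),
    (b0, [c1], h1),
    (a0, [c2], h2),
    (b0, [c3], h3),
    (b0, [c4], h4),
    (a0, [c5], h5),
    (b0, [c0, c1], h6),
    (b0, [c0, c4], h7),
    (a0, [c1, c2], h8),
    (b0, [c1, c3], h9),
    (b0, [c1, c4], h10),
    (a0, [c2, c4], h11),
    (a0, [c2, c5], h12),
    (b0, [c3, c4], h13),
    (a0, [c3, c5], h14),
    (a0, [c4, c5], h15),
    (b0, [b0], k4x0),
    (b0, [b1], k4x1),
    (b0, [b2], k4x2),
    (b0, [b0, b1], k4x3),
    (b0, [b0, b2], k4x4),
    (b0, [b1, b2], k4x5),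
    (b0, [b0, b1, b2], k4x6),
    (a0, [a0], k0x0),
    (a0, [a1], k0x1),
    (a0, [a0, a1], k0x2)]

/-- All codes in use. -/
def allCodes : List ℕ :=
  [c0, c1, c2, c3, c4, c5, a0, a1, b0, b1, b2, h0, h1, h2, h3, h4, h5, h6, h7, h8, h9, h10, h11, h12, h13, h14, h15, k4x0, k4x1, k4x2, k4x3, k4x4, k4x5, k4x6, k0x0, k0x1, k0x2, u3, v3, w3, gu, gv, p5, p11]

/-- An ordering of the subsets of the generators by fingerprint. -/
def order : List ℕ :=
  [6, 28, 11, 17, 14, 20, 25, 3, 30, 4, 9, 19, 22, 12, 27, 1, 56, 50, 48, 58, 33, 43, 35, 41, 47, 37, 45, 39, 36, 46, 44, 38, 32, 42, 40, 34, 51, 57, 49, 59, 61, 55, 63, 53, 60, 54, 52, 62, 21, 15, 10, 16, 7, 29, 2, 24, 23, 13, 18, 8, 5, 31, 26, 0]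

/-- Image of an index under a word. -/
def evalW (ws : List ℕ) (i : ℕ) : ℕ := ws.foldr app i

/-- The word attached to a bit pattern. -/
def bitWord (n : ℕ) : List ℕ :=
  ((([c0, c1, c2, c3, c4, c5] : List ℕ).zipIdx).filter fun q => n.testBit q.2).map Prod.fst

/-- A fingerprint of a word. -/
def wordKey (ws : List ℕ) : ℕ := (List.range 24).foldr (fun i acc => evalW ws i + 32 * acc) 0

/-- Strictly increasing, checked along the list. -/
def increasing : List ℕ → Bool
  | a :: b :: l => decide (a < b) && increasing (b :: l)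
  | _ => true

theorem codes_ok : (allCodes.all fun c => isAut c && mapMask c sqMask == sqMask) = true := by decide +kernel

theorem rels_ok : (rels.all fun r => (List.range 24).all fun i => evalW r.1 i == evalW r.2 i) = true := by
  decide +kernel

theorem certs_ok : (certs.all fun r => (List.range 24).all fun i =>
    evalW [r.2.2, r.1] i == evalW (r.2.1 ++ [r.2.2]) i) = true := by
  decide +kernel

theorem order_ok : order.length = 64 ∧
    increasing (order.map fun n => wordKey (bitWord n)) = true := by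
  decide +kernel

theorem w3_moves : app w3 0 ≠ 0 ∧ app p5 0 ≠ 0 ∧ app p11 0 ≠ 0 := by decide +kernel

theorem pairwise_of_increasing : ∀ {l : List ℕ}, increasing l = true → l.Pairwise (· < ·)
  | [], _ => List.Pairwise.nil
  | [a], _ => List.pairwise_singleton _ a
  | a :: b :: l, h => by
    simp only [increasing, Bool.and_eq_true, decide_eq_true_eq] at h
    have ih := pairwise_of_increasing (l := b :: l) h.2
    refine List.pairwise_cons.2 ⟨fun x hx => ?_, ih⟩
    rcases List.mem_cons.1 hx with rfl | hx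
    · exact h.1
    · exact h.1.trans ((List.pairwise_cons.1 ih).1 x hx)

theorem code_mem {c : ℕ} (h : c ∈ allCodes) : permOK c = true ∧ permOf c ∈ Cfsg.Spor.M12 := by
  have h' := List.all_eq_true.1 codes_ok c h
  simp only [Bool.and_eq_true, beq_iff_eq] at h'
  have hok := permOK_of_isAut h'.1
  refine ⟨hok, permOf_mem_M24 h'.1, ?_⟩
  show permOf c • Cfsg.Spor.squareDodecad = Cfsg.Spor.squareDodecad
  rw [squareDodecad_eq, ← bset_mapMask hok, h'.2]

/-- The element of `M₁₂` of a listed code. -/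
noncomputable def el (c : ℕ) (h : c ∈ allCodes) : Cfsg.Spor.M12 := ⟨permOf c, (code_mem h).2⟩

theorem idx_prod : ∀ {ws : List ℕ}, (∀ c ∈ ws, c ∈ allCodes) → ∀ p,
    idx ((ws.map permOf).prod p) = evalW ws (idx p)
  | [], _, p => rfl
  | c :: ws, h, p => by
    rw [List.map_cons, List.prod_cons, Equiv.Perm.mul_apply, idx_permOf (code_mem (h c (by simp))).1,
      idx_prod (fun d hd => h d (by simp [hd]))]
    rfl

theorem prod_eq {a b : List ℕ} (ha : ∀ c ∈ a, c ∈ allCodes) (hb : ∀ c ∈ b, c ∈ allCodes)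
    (h : ((List.range 24).all fun i => evalW a i == evalW b i) = true) :
    (a.map permOf).prod = (b.map permOf).prod := by
  ext1 p
  apply idx_injective
  rw [idx_prod ha, idx_prod hb]
  exact beq_iff_eq.1 (List.all_eq_true.1 h _ (List.mem_range.2 (idx_lt p)))

theorem subCodes {ws : List ℕ} (h : (ws.all fun c => allCodes.contains c) = true) :
    ∀ c ∈ ws, c ∈ allCodes := fun c hc => by simpa using List.all_eq_true.1 h c hc

theorem mem_c0 : c0 ∈ allCodes := List.mem_of_getElem? (i := 0) rfl

theorem mem_c1 : c1 ∈ allCodes := List.mem_of_getElem? (i := 1) rfl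

theorem mem_c2 : c2 ∈ allCodes := List.mem_of_getElem? (i := 2) rfl

theorem mem_c3 : c3 ∈ allCodes := List.mem_of_getElem? (i := 3) rfl

theorem mem_c4 : c4 ∈ allCodes := List.mem_of_getElem? (i := 4) rfl

theorem mem_c5 : c5 ∈ allCodes := List.mem_of_getElem? (i := 5) rfl

theorem mem_a0 : a0 ∈ allCodes := List.mem_of_getElem? (i := 6) rfl

theorem mem_a1 : a1 ∈ allCodes := List.mem_of_getElem? (i := 7) rfl

theorem mem_b0 : b0 ∈ allCodes := List.mem_of_getElem? (i := 8) rfl

theorem mem_b1 : b1 ∈ allCodes := List.mem_of_getElem? (i := 9) rfl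

theorem mem_b2 : b2 ∈ allCodes := List.mem_of_getElem? (i := 10) rfl

theorem mem_h0 : h0 ∈ allCodes := List.mem_of_getElem? (i := 11) rfl

theorem mem_h1 : h1 ∈ allCodes := List.mem_of_getElem? (i := 12) rfl

theorem mem_h2 : h2 ∈ allCodes := List.mem_of_getElem? (i := 13) rfl

theorem mem_h3 : h3 ∈ allCodes := List.mem_of_getElem? (i := 14) rfl

theorem mem_h4 : h4 ∈ allCodes := List.mem_of_getElem? (i := 15) rfl

theorem mem_h5 : h5 ∈ allCodes := List.mem_of_getElem? (i := 16) rfl

theorem mem_h6 : h6 ∈ allCodes := List.mem_of_getElem? (i := 17) rfl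

theorem mem_h7 : h7 ∈ allCodes := List.mem_of_getElem? (i := 18) rfl

theorem mem_h8 : h8 ∈ allCodes := List.mem_of_getElem? (i := 19) rfl

theorem mem_h9 : h9 ∈ allCodes := List.mem_of_getElem? (i := 20) rfl

theorem mem_h10 : h10 ∈ allCodes := List.mem_of_getElem? (i := 21) rfl

theorem mem_h11 : h11 ∈ allCodes := List.mem_of_getElem? (i := 22) rfl

theorem mem_h12 : h12 ∈ allCodes := List.mem_of_getElem? (i := 23) rfl

theorem mem_h13 : h13 ∈ allCodes := List.mem_of_getElem? (i := 24) rfl

theorem mem_h14 : h14 ∈ allCodes := List.mem_of_getElem? (i := 25) rfl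

theorem mem_h15 : h15 ∈ allCodes := List.mem_of_getElem? (i := 26) rfl

theorem mem_k4x0 : k4x0 ∈ allCodes := List.mem_of_getElem? (i := 27) rfl

theorem mem_k4x1 : k4x1 ∈ allCodes := List.mem_of_getElem? (i := 28) rfl

theorem mem_k4x2 : k4x2 ∈ allCodes := List.mem_of_getElem? (i := 29) rfl

theorem mem_k4x3 : k4x3 ∈ allCodes := List.mem_of_getElem? (i := 30) rfl

theorem mem_k4x4 : k4x4 ∈ allCodes := List.mem_of_getElem? (i := 31) rfl

theorem mem_k4x5 : k4x5 ∈ allCodes := List.mem_of_getElem? (i := 32) rfl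

theorem mem_k4x6 : k4x6 ∈ allCodes := List.mem_of_getElem? (i := 33) rfl

theorem mem_k0x0 : k0x0 ∈ allCodes := List.mem_of_getElem? (i := 34) rfl

theorem mem_k0x1 : k0x1 ∈ allCodes := List.mem_of_getElem? (i := 35) rfl

theorem mem_k0x2 : k0x2 ∈ allCodes := List.mem_of_getElem? (i := 36) rfl

theorem mem_u3 : u3 ∈ allCodes := List.mem_of_getElem? (i := 37) rfl

theorem mem_v3 : v3 ∈ allCodes := List.mem_of_getElem? (i := 38) rfl

theorem mem_w3 : w3 ∈ allCodes := List.mem_of_getElem? (i := 39) rfl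

theorem mem_gu : gu ∈ allCodes := List.mem_of_getElem? (i := 40) rfl

theorem mem_gv : gv ∈ allCodes := List.mem_of_getElem? (i := 41) rfl

theorem mem_p5 : p5 ∈ allCodes := List.mem_of_getElem? (i := 42) rfl

theorem mem_p11 : p11 ∈ allCodes := List.mem_of_getElem? (i := 43) rfl

/-- A named element. -/
noncomputable def g_c0 : Cfsg.Spor.M12 := el c0 mem_c0

/-- A named element. -/
noncomputable def g_c1 : Cfsg.Spor.M12 := el c1 mem_c1

/-- A named element. -/
noncomputable def g_c2 : Cfsg.Spor.M12 := el c2 mem_c2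

/-- A named element. -/
noncomputable def g_c3 : Cfsg.Spor.M12 := el c3 mem_c3

/-- A named element. -/
noncomputable def g_c4 : Cfsg.Spor.M12 := el c4 mem_c4

/-- A named element. -/
noncomputable def g_c5 : Cfsg.Spor.M12 := el c5 mem_c5

/-- A named element. -/
noncomputable def g_a0 : Cfsg.Spor.M12 := el a0 mem_a0

/-- A named element. -/
noncomputable def g_a1 : Cfsg.Spor.M12 := el a1 mem_a1

/-- A named element. -/
noncomputable def g_b0 : Cfsg.Spor.M12 := el b0 mem_b0

/-- A named element. -/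
noncomputable def g_b1 : Cfsg.Spor.M12 := el b1 mem_b1

/-- A named element. -/
noncomputable def g_b2 : Cfsg.Spor.M12 := el b2 mem_b2

/-- A named element. -/
noncomputable def g_u3 : Cfsg.Spor.M12 := el u3 mem_u3

/-- A named element. -/
noncomputable def g_v3 : Cfsg.Spor.M12 := el v3 mem_v3

/-- A named element. -/
noncomputable def g_w3 : Cfsg.Spor.M12 := el w3 mem_w3

/-- A named element. -/
noncomputable def g_gu : Cfsg.Spor.M12 := el gu mem_gu

/-- A named element. -/
noncomputable def g_gv : Cfsg.Spor.M12 := el gv mem_gv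

/-- A named element. -/
noncomputable def g_p5 : Cfsg.Spor.M12 := el p5 mem_p5

/-- A named element. -/
noncomputable def g_p11 : Cfsg.Spor.M12 := el p11 mem_p11

theorem rel0 : g_c0 * g_c0 = 1 := Subtype.ext (by
  have := prod_eq (a := [c0, c0]) (b := []) (subCodes (by decide +kernel)) (subCodes (by decide +kernel))
    (List.all_eq_true.1 rels_ok _ (List.mem_of_getElem? (i := 0) rfl))
  simpa [g_c0, el, mul_assoc] using this)

theorem rel1 : g_c0 * g_c1 * g_c0 = g_c1 := Subtype.ext (by
  have := prod_eq (a := [c0, c1, c0]) (b := [c1]) (subCodes (by decide +kernel)) (subCodes (by decide +kernel))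
    (List.all_eq_true.1 rels_ok _ (List.mem_of_getElem? (i := 1) rfl))
  simpa [g_c0, g_c1, el, mul_assoc] using this)

theorem rel2 : g_c0 * g_c2 * g_c0 = g_c1 * g_c2 * g_c4 := Subtype.ext (by
  have := prod_eq (a := [c0, c2, c0]) (b := [c1, c2, c4]) (subCodes (by decide +kernel)) (subCodes (by decide +kernel))
    (List.all_eq_true.1 rels_ok _ (List.mem_of_getElem? (i := 2) rfl))
  simpa [g_c0, g_c1, g_c2, g_c4, el, mul_assoc] using this)

theorem rel3 : g_c0 * g_c3 * g_c0 = g_c1 * g_c3 := Subtype.ext (by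
  have := prod_eq (a := [c0, c3, c0]) (b := [c1, c3]) (subCodes (by decide +kernel)) (subCodes (by decide +kernel))
    (List.all_eq_true.1 rels_ok _ (List.mem_of_getElem? (i := 3) rfl))
  simpa [g_c0, g_c1, g_c3, el, mul_assoc] using this)

theorem rel4 : g_c0 * g_c4 * g_c0 = g_c4 := Subtype.ext (by
  have := prod_eq (a := [c0, c4, c0]) (b := [c4]) (subCodes (by decide +kernel)) (subCodes (by decide +kernel))
    (List.all_eq_true.1 rels_ok _ (List.mem_of_getElem? (i := 4) rfl))
  simpa [g_c0, g_c4, el, mul_assoc] using this)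

theorem rel5 : g_c0 * g_c5 * g_c0 = g_c1 * g_c2 * g_c3 * g_c5 := Subtype.ext (by
  have := prod_eq (a := [c0, c5, c0]) (b := [c1, c2, c3, c5]) (subCodes (by decide +kernel)) (subCodes (by decide +kernel))
    (List.all_eq_true.1 rels_ok _ (List.mem_of_getElem? (i := 5) rfl))
  simpa [g_c0, g_c1, g_c2, g_c3, g_c5, el, mul_assoc] using this)

theorem rel6 : g_c1 * g_c1 = 1 := Subtype.ext (by
  have := prod_eq (a := [c1, c1]) (b := []) (subCodes (by decide +kernel)) (subCodes (by decide +kernel))
    (List.all_eq_true.1 rels_ok _ (List.mem_of_getElem? (i := 6) rfl))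
  simpa [g_c1, el, mul_assoc] using this)

theorem rel7 : g_c1 * g_c2 * g_c1 = g_c2 := Subtype.ext (by
  have := prod_eq (a := [c1, c2, c1]) (b := [c2]) (subCodes (by decide +kernel)) (subCodes (by decide +kernel))
    (List.all_eq_true.1 rels_ok _ (List.mem_of_getElem? (i := 7) rfl))
  simpa [g_c1, g_c2, el, mul_assoc] using this)

theorem rel8 : g_c1 * g_c3 * g_c1 = g_c3 := Subtype.ext (by
  have := prod_eq (a := [c1, c3, c1]) (b := [c3]) (subCodes (by decide +kernel)) (subCodes (by decide +kernel))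
    (List.all_eq_true.1 rels_ok _ (List.mem_of_getElem? (i := 8) rfl))
  simpa [g_c1, g_c3, el, mul_assoc] using this)

theorem rel9 : g_c1 * g_c4 * g_c1 = g_c4 := Subtype.ext (by
  have := prod_eq (a := [c1, c4, c1]) (b := [c4]) (subCodes (by decide +kernel)) (subCodes (by decide +kernel))
    (List.all_eq_true.1 rels_ok _ (List.mem_of_getElem? (i := 9) rfl))
  simpa [g_c1, g_c4, el, mul_assoc] using this)

theorem rel10 : g_c1 * g_c5 * g_c1 = g_c4 * g_c5 := Subtype.ext (by
  have := prod_eq (a := [c1, c5, c1]) (b := [c4, c5]) (subCodes (by decide +kernel)) (subCodes (by decide +kernel))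
    (List.all_eq_true.1 rels_ok _ (List.mem_of_getElem? (i := 10) rfl))
  simpa [g_c1, g_c4, g_c5, el, mul_assoc] using this)

theorem rel11 : g_c2 * g_c2 = 1 := Subtype.ext (by
  have := prod_eq (a := [c2, c2]) (b := []) (subCodes (by decide +kernel)) (subCodes (by decide +kernel))
    (List.all_eq_true.1 rels_ok _ (List.mem_of_getElem? (i := 11) rfl))
  simpa [g_c2, el, mul_assoc] using this)

theorem rel12 : g_c2 * g_c3 * g_c2 = g_c3 * g_c4 := Subtype.ext (by
  have := prod_eq (a := [c2, c3, c2]) (b := [c3, c4]) (subCodes (by decide +kernel)) (subCodes (by decide +kernel))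
    (List.all_eq_true.1 rels_ok _ (List.mem_of_getElem? (i := 12) rfl))
  simpa [g_c2, g_c3, g_c4, el, mul_assoc] using this)

theorem rel13 : g_c2 * g_c4 * g_c2 = g_c4 := Subtype.ext (by
  have := prod_eq (a := [c2, c4, c2]) (b := [c4]) (subCodes (by decide +kernel)) (subCodes (by decide +kernel))
    (List.all_eq_true.1 rels_ok _ (List.mem_of_getElem? (i := 13) rfl))
  simpa [g_c2, g_c4, el, mul_assoc] using this)

theorem rel14 : g_c2 * g_c5 * g_c2 = g_c5 := Subtype.ext (by
  have := prod_eq (a := [c2, c5, c2]) (b := [c5]) (subCodes (by decide +kernel)) (subCodes (by decide +kernel))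
    (List.all_eq_true.1 rels_ok _ (List.mem_of_getElem? (i := 14) rfl))
  simpa [g_c2, g_c5, el, mul_assoc] using this)

theorem rel15 : g_c3 * g_c3 = 1 := Subtype.ext (by
  have := prod_eq (a := [c3, c3]) (b := []) (subCodes (by decide +kernel)) (subCodes (by decide +kernel))
    (List.all_eq_true.1 rels_ok _ (List.mem_of_getElem? (i := 15) rfl))
  simpa [g_c3, el, mul_assoc] using this)

theorem rel16 : g_c3 * g_c4 * g_c3 = g_c4 := Subtype.ext (by
  have := prod_eq (a := [c3, c4, c3]) (b := [c4]) (subCodes (by decide +kernel)) (subCodes (by decide +kernel))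
    (List.all_eq_true.1 rels_ok _ (List.mem_of_getElem? (i := 16) rfl))
  simpa [g_c3, g_c4, el, mul_assoc] using this)

theorem rel17 : g_c3 * g_c5 * g_c3 = g_c5 := Subtype.ext (by
  have := prod_eq (a := [c3, c5, c3]) (b := [c5]) (subCodes (by decide +kernel)) (subCodes (by decide +kernel))
    (List.all_eq_true.1 rels_ok _ (List.mem_of_getElem? (i := 17) rfl))
  simpa [g_c3, g_c5, el, mul_assoc] using this)

theorem rel18 : g_c4 * g_c4 = 1 := Subtype.ext (by
  have := prod_eq (a := [c4, c4]) (b := []) (subCodes (by decide +kernel)) (subCodes (by decide +kernel))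
    (List.all_eq_true.1 rels_ok _ (List.mem_of_getElem? (i := 18) rfl))
  simpa [g_c4, el, mul_assoc] using this)

theorem rel19 : g_c4 * g_c5 * g_c4 = g_c5 := Subtype.ext (by
  have := prod_eq (a := [c4, c5, c4]) (b := [c5]) (subCodes (by decide +kernel)) (subCodes (by decide +kernel))
    (List.all_eq_true.1 rels_ok _ (List.mem_of_getElem? (i := 19) rfl))
  simpa [g_c4, g_c5, el, mul_assoc] using this)

theorem rel20 : g_c5 * g_c5 = 1 := Subtype.ext (by
  have := prod_eq (a := [c5, c5]) (b := []) (subCodes (by decide +kernel)) (subCodes (by decide +kernel))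
    (List.all_eq_true.1 rels_ok _ (List.mem_of_getElem? (i := 20) rfl))
  simpa [g_c5, el, mul_assoc] using this)

theorem rel21 : g_a0 * g_a0 = 1 := Subtype.ext (by
  have := prod_eq (a := [a0, a0]) (b := []) (subCodes (by decide +kernel)) (subCodes (by decide +kernel))
    (List.all_eq_true.1 rels_ok _ (List.mem_of_getElem? (i := 21) rfl))
  simpa [g_a0, el, mul_assoc] using this)

theorem rel22 : g_b0 * g_b0 = 1 := Subtype.ext (by
  have := prod_eq (a := [b0, b0]) (b := []) (subCodes (by decide +kernel)) (subCodes (by decide +kernel))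
    (List.all_eq_true.1 rels_ok _ (List.mem_of_getElem? (i := 22) rfl))
  simpa [g_b0, el, mul_assoc] using this)

theorem rel23 : g_u3 * g_u3 * g_u3 = 1 := Subtype.ext (by
  have := prod_eq (a := [u3, u3, u3]) (b := []) (subCodes (by decide +kernel)) (subCodes (by decide +kernel))
    (List.all_eq_true.1 rels_ok _ (List.mem_of_getElem? (i := 23) rfl))
  simpa [g_u3, el, mul_assoc] using this)

theorem rel24 : g_v3 * g_v3 * g_v3 = 1 := Subtype.ext (by
  have := prod_eq (a := [v3, v3, v3]) (b := []) (subCodes (by decide +kernel)) (subCodes (by decide +kernel))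
    (List.all_eq_true.1 rels_ok _ (List.mem_of_getElem? (i := 24) rfl))
  simpa [g_v3, el, mul_assoc] using this)

theorem rel25 : g_w3 * g_w3 * g_w3 = 1 := Subtype.ext (by
  have := prod_eq (a := [w3, w3, w3]) (b := []) (subCodes (by decide +kernel)) (subCodes (by decide +kernel))
    (List.all_eq_true.1 rels_ok _ (List.mem_of_getElem? (i := 25) rfl))
  simpa [g_w3, el, mul_assoc] using this)

theorem rel26 : g_u3 * g_v3 = g_w3 * g_v3 * g_u3 := Subtype.ext (by
  have := prod_eq (a := [u3, v3]) (b := [w3, v3, u3]) (subCodes (by decide +kernel)) (subCodes (by decide +kernel))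
    (List.all_eq_true.1 rels_ok _ (List.mem_of_getElem? (i := 26) rfl))
  simpa [g_u3, g_v3, g_w3, el, mul_assoc] using this)

theorem rel27 : g_u3 * g_w3 = g_w3 * g_u3 := Subtype.ext (by
  have := prod_eq (a := [u3, w3]) (b := [w3, u3]) (subCodes (by decide +kernel)) (subCodes (by decide +kernel))
    (List.all_eq_true.1 rels_ok _ (List.mem_of_getElem? (i := 27) rfl))
  simpa [g_u3, g_w3, el, mul_assoc] using this)

theorem rel28 : g_v3 * g_w3 = g_w3 * g_v3 := Subtype.ext (by
  have := prod_eq (a := [v3, w3]) (b := [w3, v3]) (subCodes (by decide +kernel)) (subCodes (by decide +kernel))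
    (List.all_eq_true.1 rels_ok _ (List.mem_of_getElem? (i := 28) rfl))
  simpa [g_v3, g_w3, el, mul_assoc] using this)

theorem rel29 : g_u3 * g_gu * g_u3 = g_gu := Subtype.ext (by
  have := prod_eq (a := [u3, gu, u3]) (b := [gu]) (subCodes (by decide +kernel)) (subCodes (by decide +kernel))
    (List.all_eq_true.1 rels_ok _ (List.mem_of_getElem? (i := 29) rfl))
  simpa [g_gu, g_u3, el, mul_assoc] using this)

theorem rel30 : g_gu * g_w3 = g_w3 * g_gu := Subtype.ext (by
  have := prod_eq (a := [gu, w3]) (b := [w3, gu]) (subCodes (by decide +kernel)) (subCodes (by decide +kernel))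
    (List.all_eq_true.1 rels_ok _ (List.mem_of_getElem? (i := 30) rfl))
  simpa [g_gu, g_w3, el, mul_assoc] using this)

theorem rel31 : g_v3 * g_gv * g_v3 = g_gv := Subtype.ext (by
  have := prod_eq (a := [v3, gv, v3]) (b := [gv]) (subCodes (by decide +kernel)) (subCodes (by decide +kernel))
    (List.all_eq_true.1 rels_ok _ (List.mem_of_getElem? (i := 31) rfl))
  simpa [g_gv, g_v3, el, mul_assoc] using this)

theorem rel32 : g_gv * g_w3 = g_w3 * g_gv := Subtype.ext (by
  have := prod_eq (a := [gv, w3]) (b := [w3, gv]) (subCodes (by decide +kernel)) (subCodes (by decide +kernel))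
    (List.all_eq_true.1 rels_ok _ (List.mem_of_getElem? (i := 32) rfl))
  simpa [g_gv, g_w3, el, mul_assoc] using this)

theorem rel33 : g_p5 * g_p5 * g_p5 * g_p5 * g_p5 = 1 := Subtype.ext (by
  have := prod_eq (a := [p5, p5, p5, p5, p5]) (b := []) (subCodes (by decide +kernel)) (subCodes (by decide +kernel))
    (List.all_eq_true.1 rels_ok _ (List.mem_of_getElem? (i := 33) rfl))
  simpa [g_p5, el, mul_assoc] using this)

theorem rel34 : g_p11 * g_p11 * g_p11 * g_p11 * g_p11 * g_p11 * g_p11 * g_p11 * g_p11 * g_p11 * g_p11 = 1 := Subtype.ext (by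
  have := prod_eq (a := [p11, p11, p11, p11, p11, p11, p11, p11, p11, p11, p11]) (b := []) (subCodes (by decide +kernel)) (subCodes (by decide +kernel))
    (List.all_eq_true.1 rels_ok _ (List.mem_of_getElem? (i := 34) rfl))
  simpa [g_p11, el, mul_assoc] using this)

theorem cert0 : ∃ k : Cfsg.Spor.M12, k * g_b0 * k⁻¹ = g_c0 := by
  refine ⟨el h0 mem_h0, mul_inv_eq_iff_eq_mul.2 (Subtype.ext ?_)⟩
  have := prod_eq (a := [h0, b0]) (b := [c0, h0]) (subCodes (by decide +kernel)) (subCodes (by decide +kernel))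
    (List.all_eq_true.1 certs_ok _ (List.mem_of_getElem? (i := 0) rfl))
  simpa [g_b0, g_c0, el, mul_assoc] using this

theorem cert1 : ∃ k : Cfsg.Spor.M12, k * g_b0 * k⁻¹ = g_c1 := by
  refine ⟨el h1 mem_h1, mul_inv_eq_iff_eq_mul.2 (Subtype.ext ?_)⟩
  have := prod_eq (a := [h1, b0]) (b := [c1, h1]) (subCodes (by decide +kernel)) (subCodes (by decide +kernel))
    (List.all_eq_true.1 certs_ok _ (List.mem_of_getElem? (i := 1) rfl))
  simpa [g_b0, g_c1, el, mul_assoc] using this

theorem cert2 : ∃ k : Cfsg.Spor.M12, k * g_a0 * k⁻¹ = g_c2 := by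
  refine ⟨el h2 mem_h2, mul_inv_eq_iff_eq_mul.2 (Subtype.ext ?_)⟩
  have := prod_eq (a := [h2, a0]) (b := [c2, h2]) (subCodes (by decide +kernel)) (subCodes (by decide +kernel))
    (List.all_eq_true.1 certs_ok _ (List.mem_of_getElem? (i := 2) rfl))
  simpa [g_a0, g_c2, el, mul_assoc] using this

theorem cert3 : ∃ k : Cfsg.Spor.M12, k * g_b0 * k⁻¹ = g_c3 := by
  refine ⟨el h3 mem_h3, mul_inv_eq_iff_eq_mul.2 (Subtype.ext ?_)⟩
  have := prod_eq (a := [h3, b0]) (b := [c3, h3]) (subCodes (by decide +kernel)) (subCodes (by decide +kernel))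
    (List.all_eq_true.1 certs_ok _ (List.mem_of_getElem? (i := 3) rfl))
  simpa [g_b0, g_c3, el, mul_assoc] using this

theorem cert4 : ∃ k : Cfsg.Spor.M12, k * g_b0 * k⁻¹ = g_c4 := by
  refine ⟨el h4 mem_h4, mul_inv_eq_iff_eq_mul.2 (Subtype.ext ?_)⟩
  have := prod_eq (a := [h4, b0]) (b := [c4, h4]) (subCodes (by decide +kernel)) (subCodes (by decide +kernel))
    (List.all_eq_true.1 certs_ok _ (List.mem_of_getElem? (i := 4) rfl))
  simpa [g_b0, g_c4, el, mul_assoc] using this

theorem cert5 : ∃ k : Cfsg.Spor.M12, k * g_a0 * k⁻¹ = g_c5 := by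
  refine ⟨el h5 mem_h5, mul_inv_eq_iff_eq_mul.2 (Subtype.ext ?_)⟩
  have := prod_eq (a := [h5, a0]) (b := [c5, h5]) (subCodes (by decide +kernel)) (subCodes (by decide +kernel))
    (List.all_eq_true.1 certs_ok _ (List.mem_of_getElem? (i := 5) rfl))
  simpa [g_a0, g_c5, el, mul_assoc] using this

theorem cert6 : ∃ k : Cfsg.Spor.M12, k * g_b0 * k⁻¹ = g_c0 * g_c1 := by
  refine ⟨el h6 mem_h6, mul_inv_eq_iff_eq_mul.2 (Subtype.ext ?_)⟩
  have := prod_eq (a := [h6, b0]) (b := [c0, c1, h6]) (subCodes (by decide +kernel)) (subCodes (by decide +kernel))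
    (List.all_eq_true.1 certs_ok _ (List.mem_of_getElem? (i := 6) rfl))
  simpa [g_b0, g_c0, g_c1, el, mul_assoc] using this

theorem cert7 : ∃ k : Cfsg.Spor.M12, k * g_b0 * k⁻¹ = g_c0 * g_c4 := by
  refine ⟨el h7 mem_h7, mul_inv_eq_iff_eq_mul.2 (Subtype.ext ?_)⟩
  have := prod_eq (a := [h7, b0]) (b := [c0, c4, h7]) (subCodes (by decide +kernel)) (subCodes (by decide +kernel))
    (List.all_eq_true.1 certs_ok _ (List.mem_of_getElem? (i := 7) rfl))
  simpa [g_b0, g_c0, g_c4, el, mul_assoc] using this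

theorem cert8 : ∃ k : Cfsg.Spor.M12, k * g_a0 * k⁻¹ = g_c1 * g_c2 := by
  refine ⟨el h8 mem_h8, mul_inv_eq_iff_eq_mul.2 (Subtype.ext ?_)⟩
  have := prod_eq (a := [h8, a0]) (b := [c1, c2, h8]) (subCodes (by decide +kernel)) (subCodes (by decide +kernel))
    (List.all_eq_true.1 certs_ok _ (List.mem_of_getElem? (i := 8) rfl))
  simpa [g_a0, g_c1, g_c2, el, mul_assoc] using this

theorem cert9 : ∃ k : Cfsg.Spor.M12, k * g_b0 * k⁻¹ = g_c1 * g_c3 := by
  refine ⟨el h9 mem_h9, mul_inv_eq_iff_eq_mul.2 (Subtype.ext ?_)⟩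
  have := prod_eq (a := [h9, b0]) (b := [c1, c3, h9]) (subCodes (by decide +kernel)) (subCodes (by decide +kernel))
    (List.all_eq_true.1 certs_ok _ (List.mem_of_getElem? (i := 9) rfl))
  simpa [g_b0, g_c1, g_c3, el, mul_assoc] using this

theorem cert10 : ∃ k : Cfsg.Spor.M12, k * g_b0 * k⁻¹ = g_c1 * g_c4 := by
  refine ⟨el h10 mem_h10, mul_inv_eq_iff_eq_mul.2 (Subtype.ext ?_)⟩
  have := prod_eq (a := [h10, b0]) (b := [c1, c4, h10]) (subCodes (by decide +kernel)) (subCodes (by decide +kernel))
    (List.all_eq_true.1 certs_ok _ (List.mem_of_getElem? (i := 10) rfl))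
  simpa [g_b0, g_c1, g_c4, el, mul_assoc] using this

theorem cert11 : ∃ k : Cfsg.Spor.M12, k * g_a0 * k⁻¹ = g_c2 * g_c4 := by
  refine ⟨el h11 mem_h11, mul_inv_eq_iff_eq_mul.2 (Subtype.ext ?_)⟩
  have := prod_eq (a := [h11, a0]) (b := [c2, c4, h11]) (subCodes (by decide +kernel)) (subCodes (by decide +kernel))
    (List.all_eq_true.1 certs_ok _ (List.mem_of_getElem? (i := 11) rfl))
  simpa [g_a0, g_c2, g_c4, el, mul_assoc] using this

theorem cert12 : ∃ k : Cfsg.Spor.M12, k * g_a0 * k⁻¹ = g_c2 * g_c5 := by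
  refine ⟨el h12 mem_h12, mul_inv_eq_iff_eq_mul.2 (Subtype.ext ?_)⟩
  have := prod_eq (a := [h12, a0]) (b := [c2, c5, h12]) (subCodes (by decide +kernel)) (subCodes (by decide +kernel))
    (List.all_eq_true.1 certs_ok _ (List.mem_of_getElem? (i := 12) rfl))
  simpa [g_a0, g_c2, g_c5, el, mul_assoc] using this

theorem cert13 : ∃ k : Cfsg.Spor.M12, k * g_b0 * k⁻¹ = g_c3 * g_c4 := by
  refine ⟨el h13 mem_h13, mul_inv_eq_iff_eq_mul.2 (Subtype.ext ?_)⟩
  have := prod_eq (a := [h13, b0]) (b := [c3, c4, h13]) (subCodes (by decide +kernel)) (subCodes (by decide +kernel))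
    (List.all_eq_true.1 certs_ok _ (List.mem_of_getElem? (i := 13) rfl))
  simpa [g_b0, g_c3, g_c4, el, mul_assoc] using this

theorem cert14 : ∃ k : Cfsg.Spor.M12, k * g_a0 * k⁻¹ = g_c3 * g_c5 := by
  refine ⟨el h14 mem_h14, mul_inv_eq_iff_eq_mul.2 (Subtype.ext ?_)⟩
  have := prod_eq (a := [h14, a0]) (b := [c3, c5, h14]) (subCodes (by decide +kernel)) (subCodes (by decide +kernel))
    (List.all_eq_true.1 certs_ok _ (List.mem_of_getElem? (i := 14) rfl))
  simpa [g_a0, g_c3, g_c5, el, mul_assoc] using this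

theorem cert15 : ∃ k : Cfsg.Spor.M12, k * g_a0 * k⁻¹ = g_c4 * g_c5 := by
  refine ⟨el h15 mem_h15, mul_inv_eq_iff_eq_mul.2 (Subtype.ext ?_)⟩
  have := prod_eq (a := [h15, a0]) (b := [c4, c5, h15]) (subCodes (by decide +kernel)) (subCodes (by decide +kernel))
    (List.all_eq_true.1 certs_ok _ (List.mem_of_getElem? (i := 15) rfl))
  simpa [g_a0, g_c4, g_c5, el, mul_assoc] using this

theorem cert16 : ∃ k : Cfsg.Spor.M12, k * g_b0 * k⁻¹ = g_b0 := by
  refine ⟨el k4x0 mem_k4x0, mul_inv_eq_iff_eq_mul.2 (Subtype.ext ?_)⟩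
  have := prod_eq (a := [k4x0, b0]) (b := [b0, k4x0]) (subCodes (by decide +kernel)) (subCodes (by decide +kernel))
    (List.all_eq_true.1 certs_ok _ (List.mem_of_getElem? (i := 16) rfl))
  simpa [g_b0, el, mul_assoc] using this

theorem cert17 : ∃ k : Cfsg.Spor.M12, k * g_b0 * k⁻¹ = g_b1 := by
  refine ⟨el k4x1 mem_k4x1, mul_inv_eq_iff_eq_mul.2 (Subtype.ext ?_)⟩
  have := prod_eq (a := [k4x1, b0]) (b := [b1, k4x1]) (subCodes (by decide +kernel)) (subCodes (by decide +kernel))
    (List.all_eq_true.1 certs_ok _ (List.mem_of_getElem? (i := 17) rfl))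
  simpa [g_b0, g_b1, el, mul_assoc] using this

theorem cert18 : ∃ k : Cfsg.Spor.M12, k * g_b0 * k⁻¹ = g_b2 := by
  refine ⟨el k4x2 mem_k4x2, mul_inv_eq_iff_eq_mul.2 (Subtype.ext ?_)⟩
  have := prod_eq (a := [k4x2, b0]) (b := [b2, k4x2]) (subCodes (by decide +kernel)) (subCodes (by decide +kernel))
    (List.all_eq_true.1 certs_ok _ (List.mem_of_getElem? (i := 18) rfl))
  simpa [g_b0, g_b2, el, mul_assoc] using this

theorem cert19 : ∃ k : Cfsg.Spor.M12, k * g_b0 * k⁻¹ = g_b0 * g_b1 := by
  refine ⟨el k4x3 mem_k4x3, mul_inv_eq_iff_eq_mul.2 (Subtype.ext ?_)⟩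
  have := prod_eq (a := [k4x3, b0]) (b := [b0, b1, k4x3]) (subCodes (by decide +kernel)) (subCodes (by decide +kernel))
    (List.all_eq_true.1 certs_ok _ (List.mem_of_getElem? (i := 19) rfl))
  simpa [g_b0, g_b1, el, mul_assoc] using this

theorem cert20 : ∃ k : Cfsg.Spor.M12, k * g_b0 * k⁻¹ = g_b0 * g_b2 := by
  refine ⟨el k4x4 mem_k4x4, mul_inv_eq_iff_eq_mul.2 (Subtype.ext ?_)⟩
  have := prod_eq (a := [k4x4, b0]) (b := [b0, b2, k4x4]) (subCodes (by decide +kernel)) (subCodes (by decide +kernel))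
    (List.all_eq_true.1 certs_ok _ (List.mem_of_getElem? (i := 20) rfl))
  simpa [g_b0, g_b2, el, mul_assoc] using this

theorem cert21 : ∃ k : Cfsg.Spor.M12, k * g_b0 * k⁻¹ = g_b1 * g_b2 := by
  refine ⟨el k4x5 mem_k4x5, mul_inv_eq_iff_eq_mul.2 (Subtype.ext ?_)⟩
  have := prod_eq (a := [k4x5, b0]) (b := [b1, b2, k4x5]) (subCodes (by decide +kernel)) (subCodes (by decide +kernel))
    (List.all_eq_true.1 certs_ok _ (List.mem_of_getElem? (i := 21) rfl))
  simpa [g_b0, g_b1, g_b2, el, mul_assoc] using this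

theorem cert22 : ∃ k : Cfsg.Spor.M12, k * g_b0 * k⁻¹ = g_b0 * g_b1 * g_b2 := by
  refine ⟨el k4x6 mem_k4x6, mul_inv_eq_iff_eq_mul.2 (Subtype.ext ?_)⟩
  have := prod_eq (a := [k4x6, b0]) (b := [b0, b1, b2, k4x6]) (subCodes (by decide +kernel)) (subCodes (by decide +kernel))
    (List.all_eq_true.1 certs_ok _ (List.mem_of_getElem? (i := 22) rfl))
  simpa [g_b0, g_b1, g_b2, el, mul_assoc] using this

theorem cert23 : ∃ k : Cfsg.Spor.M12, k * g_a0 * k⁻¹ = g_a0 := by
  refine ⟨el k0x0 mem_k0x0, mul_inv_eq_iff_eq_mul.2 (Subtype.ext ?_)⟩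
  have := prod_eq (a := [k0x0, a0]) (b := [a0, k0x0]) (subCodes (by decide +kernel)) (subCodes (by decide +kernel))
    (List.all_eq_true.1 certs_ok _ (List.mem_of_getElem? (i := 23) rfl))
  simpa [g_a0, el, mul_assoc] using this

theorem cert24 : ∃ k : Cfsg.Spor.M12, k * g_a0 * k⁻¹ = g_a1 := by
  refine ⟨el k0x1 mem_k0x1, mul_inv_eq_iff_eq_mul.2 (Subtype.ext ?_)⟩
  have := prod_eq (a := [k0x1, a0]) (b := [a1, k0x1]) (subCodes (by decide +kernel)) (subCodes (by decide +kernel))
    (List.all_eq_true.1 certs_ok _ (List.mem_of_getElem? (i := 24) rfl))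
  simpa [g_a0, g_a1, el, mul_assoc] using this

theorem cert25 : ∃ k : Cfsg.Spor.M12, k * g_a0 * k⁻¹ = g_a0 * g_a1 := by
  refine ⟨el k0x2 mem_k0x2, mul_inv_eq_iff_eq_mul.2 (Subtype.ext ?_)⟩
  have := prod_eq (a := [k0x2, a0]) (b := [a0, a1, k0x2]) (subCodes (by decide +kernel)) (subCodes (by decide +kernel))
    (List.all_eq_true.1 certs_ok _ (List.mem_of_getElem? (i := 25) rfl))
  simpa [g_a0, g_a1, el, mul_assoc] using this

theorem w3_ne : g_w3 ≠ 1 := fun h => w3_moves.1 (by
  have e : permOf w3 = 1 := congrArg Subtype.val h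
  have := idx_permOf (code_mem mem_w3).1 (pt 0)
  rw [e, Equiv.Perm.one_apply, idx_pt (by norm_num)] at this
  exact this.symm)

theorem inj_of_increasing {l : List ℕ} {f : ℕ → ℕ} (h : increasing (l.map f) = true) (a b : Fin l.length)
    (hk : f l[a.1] = f l[b.1]) : a = b := by
  have hnd : (l.map f).Nodup := (pairwise_of_increasing h).imp fun h => h.ne
  have ha : a.1 < (l.map f).length := by rw [List.length_map]; exact a.2
  have hb : b.1 < (l.map f).length := by rw [List.length_map]; exact b.2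
  have h' : (l.map f)[a.1] = (l.map f)[b.1] := by rw [List.getElem_map, List.getElem_map]; exact hk
  exact Fin.ext (hnd.getElem_inj_iff.1 h')

theorem p5_ne : g_p5 ≠ 1 := fun h => w3_moves.2.1 (by
  have e : permOf p5 = 1 := congrArg Subtype.val h
  have := idx_permOf (code_mem mem_p5).1 (pt 0)
  rw [e, Equiv.Perm.one_apply, idx_pt (by norm_num)] at this
  exact this.symm)

theorem p11_ne : g_p11 ≠ 1 := fun h => w3_moves.2.2 (by
  have e : permOf p11 = 1 := congrArg Subtype.val h
  have := idx_permOf (code_mem mem_p11).1 (pt 0)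
  rw [e, Equiv.Perm.one_apply, idx_pt (by norm_num)] at this
  exact this.symm)

theorem bitWord_sub (n : ℕ) : ∀ c ∈ bitWord n, c ∈ ([c0, c1, c2, c3, c4, c5] : List ℕ) := by
  intro c hc
  simp only [bitWord, List.mem_map, List.mem_filter] at hc
  obtain ⟨q, ⟨hq, -⟩, rfl⟩ := hc
  exact (List.mem_zipIdx' hq).2 ▸ List.getElem_mem _

theorem gens_card_ge : 64 ≤ Nat.card (Subgroup.closure ({g_c0, g_c1, g_c2, g_c3, g_c4, g_c5} : Set Cfsg.Spor.M12)) := by
  set K := Subgroup.closure ({g_c0, g_c1, g_c2, g_c3, g_c4, g_c5} : Set Cfsg.Spor.M12)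
  have hmem : ∀ c ∈ ([c0, c1, c2, c3, c4, c5] : List ℕ), permOf c ∈ K.map Cfsg.Spor.M12.subtype ∧ c ∈ allCodes := by
    intro c hc
    simp only [List.mem_cons, List.not_mem_nil, or_false] at hc
    rcases hc with rfl | rfl | rfl | rfl | rfl | rfl
    · exact ⟨⟨g_c0, Subgroup.subset_closure (by simp), rfl⟩, mem_c0⟩
    · exact ⟨⟨g_c1, Subgroup.subset_closure (by simp), rfl⟩, mem_c1⟩
    · exact ⟨⟨g_c2, Subgroup.subset_closure (by simp), rfl⟩, mem_c2⟩
    · exact ⟨⟨g_c3, Subgroup.subset_closure (by simp), rfl⟩, mem_c3⟩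
    · exact ⟨⟨g_c4, Subgroup.subset_closure (by simp), rfl⟩, mem_c4⟩
    · exact ⟨⟨g_c5, Subgroup.subset_closure (by simp), rfl⟩, mem_c5⟩
  have hw : ∀ n, ((bitWord n).map permOf).prod ∈ K.map Cfsg.Spor.M12.subtype := fun n =>
    Subgroup.list_prod_mem _ fun x hx => by
      obtain ⟨c, hc, rfl⟩ := List.mem_map.1 hx
      exact (hmem c (bitWord_sub n c hc)).1
  rw [← Subgroup.card_map_of_injective Cfsg.Spor.M12.subtype_injective (K := K)]
  obtain ⟨hlen, hinc⟩ := order_ok
  refine le_trans (le_of_eq (hlen ▸ (Nat.card_fin order.length).symm))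
    (Nat.card_le_card_of_injective (fun n : Fin order.length => ⟨_, hw (order[n.1])⟩) fun a b hab => ?_)
  have hk : wordKey (bitWord order[a.1]) = wordKey (bitWord order[b.1]) := by
    unfold wordKey
    refine List.foldr_ext _ _ _ fun i hi acc => ?_
    have e := congrArg (fun σ : Equiv.Perm GolayPt => idx (σ (pt i))) (congrArg Subtype.val hab)
    simp only [idx_prod (fun c hc => (hmem c (bitWord_sub _ c hc)).2), idx_pt (List.mem_range.1 hi)] at e
    rw [e]
  exact inj_of_increasing (f := fun n => wordKey (bitWord n)) hinc a b hk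

end Cfsg.Agent.FGS4.M12Schur
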