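import Cfsg.Agent.FGS4.SchurSylow.Lifts

/-! A Sylow 2-subgroup of `M₁₂`, given by six involutions, splits in every central extension by an
elementary abelian 2-group in which its involutions lift to involutions. -/

set_option autoImplicit false
set_option maxHeartbeats 4000000

namespace Cfsg.Agent.FGS4.M12Schur

open Subgroup
open scoped commutatorElement

universe u v

variable {Γ : Type u} [Group Γ] {Q : Type v} [Group Q]

/-- The elements whose lifts have to be involutions. -/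
def invols (e0 e1 e2 e3 e4 e5 : Q) : List Q :=
  [e0,
    e1,
    e2,
    e3,
    e4,
    e5,
    e0 * e1,
    e0 * e4,
    e1 * e2,
    e1 * e3,
    e1 * e4,
    e2 * e4,
    e2 * e5,
    e3 * e4,
    e3 * e5,
    e4 * e5]

theorem stem_false_two [Finite Γ] {σ : Γ →* Q} (hσ : Cfsg.IsStemExtension σ) {e0 e1 e2 e3 e4 e5 : Q}
    (r02 : e0 * e2 * e0 = e1 * e2 * e4)
    (r03 : e0 * e3 * e0 = e1 * e3)
    (r05 : e0 * e5 * e0 = e1 * e2 * e3 * e5)
    (r15 : e1 * e5 * e1 = e4 * e5)
    (r23 : e2 * e3 * e2 = e3 * e4)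
    (hcard : Nat.card (closure ({e0, e1, e2, e3, e4, e5} : Set Q)) = 64)
    (S : Sylow 2 Q) (hS : (S : Subgroup Q) = closure {e0, e1, e2, e3, e4, e5})
    {z : Γ} (hz : z ∈ σ.ker) (hzo : orderOf z = 2) (hker : ∀ w ∈ σ.ker, w * w = 1)
    (hinv : ∀ X : Γ, σ X ∈ invols e0 e1 e2 e3 e4 e5 → X * X = 1) : False := by
  have hc : ∀ w ∈ σ.ker, ∀ y : Γ, y * w = w * y := fun w hw => mem_center_iff.1 (hσ.2.1 hw)
  have memI : ∀ {X : Γ} {q : Q}, σ X = q → q ∈ invols e0 e1 e2 e3 e4 e5 → X * X = 1 := fun h1 h2 => hinv _ (h1 ▸ h2)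
  have qq : ∀ {q : Q}, q ∈ invols e0 e1 e2 e3 e4 e5 → q * q = 1 := fun {q} hq => by
    obtain ⟨X, hX⟩ := hσ.1 q
    rw [← hX, ← map_mul, memI hX hq, map_one]
  have L : ∀ {M : Type u} [Group M] {a b c : M}, a * b = c → ∀ x : M, a * (b * x) = c * x :=
    fun h x => by rw [← mul_assoc, h]
  have LQ : ∀ {a b c : Q}, a * b = c → ∀ x : Q, a * (b * x) = c * x := fun h x => by rw [← mul_assoc, h]
  have flip : ∀ {X Y W : Γ}, X * X = 1 → X * Y * X = W → Y * X = X * W := fun {X Y W} hX h => by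
    rw [← h, ← mul_assoc, ← mul_assoc, hX, one_mul]
  have q0 : e0 * e0 = 1 := qq (by simp [invols])
  have q1 : e1 * e1 = 1 := qq (by simp [invols])
  have q2 : e2 * e2 = 1 := qq (by simp [invols])
  have q3 : e3 * e3 = 1 := qq (by simp [invols])
  have q4 : e4 * e4 = 1 := qq (by simp [invols])
  have q5 : e5 * e5 = 1 := qq (by simp [invols])
  obtain ⟨A0, a0⟩ := hσ.1 e0
  have s0 : A0 * A0 = 1 := memI a0 (by simp [invols])
  obtain ⟨A3, a3⟩ := hσ.1 e3
  have s3 : A3 * A3 = 1 := memI a3 (by simp [invols])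
  obtain ⟨A5, a5⟩ := hσ.1 e5
  have s5 : A5 * A5 = 1 := memI a5 (by simp [invols])
  obtain ⟨A1, d1⟩ : ∃ A, A = (A0 * A3 * A0) * A3 := ⟨_, rfl⟩
  have a1 : σ A1 = e1 := by
    rw [d1]; simp only [map_mul, a0, a3]
    rw [r03]
    try simp [mul_assoc, q1, LQ q1, q3, LQ q3]
  have s1 : A1 * A1 = 1 := memI a1 (by simp [invols])
  have m03 : A3 * A0 = A0 * (A1 * (A3)) := flip s0 (by
    simp [d1, mul_assoc, s0, L s0, s3, L s3])
  obtain ⟨A2, d2⟩ : ∃ A, A = A1 * (A0 * A5 * A0) * A5 * A3 := ⟨_, rfl⟩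
  have a2 : σ A2 = e2 := by
    rw [d2]; simp only [map_mul, a0, a1, a3, a5]
    rw [r05]
    try simp [mul_assoc, q1, LQ q1, q2, LQ q2, q3, LQ q3, q5, LQ q5]
  have s2 : A2 * A2 = 1 := memI a2 (by simp [invols])
  have m05 : A5 * A0 = A0 * (A1 * (A2 * (A3 * (A5)))) := flip s0 (by
    simp [d2, mul_assoc, s0, L s0, s1, L s1, s3, L s3, s5, L s5])
  obtain ⟨A4, d4⟩ : ∃ A, A = (A1 * A5 * A1) * A5 := ⟨_, rfl⟩
  have a4 : σ A4 = e4 := by
    rw [d4]; simp only [map_mul, a1, a5]
    rw [r15]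
    try simp [mul_assoc, q4, LQ q4, q5, LQ q5]
  have s4 : A4 * A4 = 1 := memI a4 (by simp [invols])
  have m15 : A5 * A1 = A1 * (A4 * (A5)) := flip s1 (by
    simp [d4, mul_assoc, s1, L s1, s5, L s5])
  have c01 : A1 * A0 = A0 * A1 :=
    Cfsg.Agent.FGS4.SchurSylow.commute_of_sq s0 s1 (hinv _ (by rw [map_mul, a0, a1]; simp [invols]))
  have c04 : A4 * A0 = A0 * A4 :=
    Cfsg.Agent.FGS4.SchurSylow.commute_of_sq s0 s4 (hinv _ (by rw [map_mul, a0, a4]; simp [invols]))
  have c12 : A2 * A1 = A1 * A2 :=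
    Cfsg.Agent.FGS4.SchurSylow.commute_of_sq s1 s2 (hinv _ (by rw [map_mul, a1, a2]; simp [invols]))
  have c13 : A3 * A1 = A1 * A3 :=
    Cfsg.Agent.FGS4.SchurSylow.commute_of_sq s1 s3 (hinv _ (by rw [map_mul, a1, a3]; simp [invols]))
  have c14 : A4 * A1 = A1 * A4 :=
    Cfsg.Agent.FGS4.SchurSylow.commute_of_sq s1 s4 (hinv _ (by rw [map_mul, a1, a4]; simp [invols]))
  have c24 : A4 * A2 = A2 * A4 :=
    Cfsg.Agent.FGS4.SchurSylow.commute_of_sq s2 s4 (hinv _ (by rw [map_mul, a2, a4]; simp [invols]))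
  have c25 : A5 * A2 = A2 * A5 :=
    Cfsg.Agent.FGS4.SchurSylow.commute_of_sq s2 s5 (hinv _ (by rw [map_mul, a2, a5]; simp [invols]))
  have c34 : A4 * A3 = A3 * A4 :=
    Cfsg.Agent.FGS4.SchurSylow.commute_of_sq s3 s4 (hinv _ (by rw [map_mul, a3, a4]; simp [invols]))
  have c35 : A5 * A3 = A3 * A5 :=
    Cfsg.Agent.FGS4.SchurSylow.commute_of_sq s3 s5 (hinv _ (by rw [map_mul, a3, a5]; simp [invols]))
  have c45 : A5 * A4 = A4 * A5 :=
    Cfsg.Agent.FGS4.SchurSylow.commute_of_sq s4 s5 (hinv _ (by rw [map_mul, a4, a5]; simp [invols]))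
  obtain ⟨w02, hw02, m02⟩ : ∃ w ∈ σ.ker, A2 * A0 = w * (A0 * (A1 * (A2 * (A4)))) := by
    refine ⟨A2 * A0 * (A0 * (A1 * (A2 * (A4))))⁻¹, ?_, (inv_mul_cancel_right _ _).symm⟩
    rw [MonoidHom.mem_ker]
    simp only [map_mul, map_inv, a0, a1, a2, a4]
    rw [mul_inv_eq_one]
    calc e2 * e0 = e0 * (e0 * e2 * e0) := by simp [← mul_assoc, q0]
      _ = _ := by rw [r02]; try simp [mul_assoc]
  obtain ⟨w23, hw23, m23⟩ : ∃ w ∈ σ.ker, A3 * A2 = w * (A2 * (A3 * (A4))) := by
    refine ⟨A3 * A2 * (A2 * (A3 * (A4)))⁻¹, ?_, (inv_mul_cancel_right _ _).symm⟩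
    rw [MonoidHom.mem_ker]
    simp only [map_mul, map_inv, a2, a3, a4]
    rw [mul_inv_eq_one]
    calc e3 * e2 = e2 * (e2 * e3 * e2) := by simp [← mul_assoc, q2]
      _ = _ := by rw [r23]; try simp [mul_assoc]
  have pull : ∀ {w : Γ}, w ∈ σ.ker → ∀ (a x : Γ), a * (w * x) = w * (a * x) := fun {w} hw a x => by
    rw [← mul_assoc, hc w hw a, mul_assoc]
  have h23 : w23 = 1 := by
    have key : A5 * A3 * A0 = A5 * (A3 * A0) := mul_assoc _ _ _
    rw [c35, m03] at key
    simp only [mul_assoc, s0, s1, s2, s3, s4, s5, L s0, L s1, L s2, L s3, L s4, L s5, c01, L c01, c04, L c04, c12, L c12, c13, L c13, c14, L c14, c24, L c24, c25, L c25, c34, L c34, c35, L c35, c45, L c45, m03, m05, m15, m23, L m03, L m05, L m15, L m23, pull hw23 A0, pull hw23 A1, pull hw23 A2, pull hw23 A3, pull hw23 A4, pull hw23 A5, hc w23 hw23 A0, hc w23 hw23 A1, hc w23 hw23 A2, hc w23 hw23 A3, hc w23 hw23 A4, hc w23 hw23 A5, hker w23 hw23, mul_one, one_mul] at key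
    simpa using key
  subst h23
  simp only [one_mul] at m23
  have h02 : w02 = 1 := by
    have key : A5 * A0 * A0 = A5 := by rw [mul_assoc, s0, mul_one]
    rw [m05] at key
    simp only [mul_assoc, s0, s1, s2, s3, s4, s5, L s0, L s1, L s2, L s3, L s4, L s5, c01, L c01, c04, L c04, c12, L c12, c13, L c13, c14, L c14, c24, L c24, c25, L c25, c34, L c34, c35, L c35, c45, L c45, m03, m05, m15, m23, m02, L m03, L m05, L m15, L m23, L m02, pull hw02 A0, pull hw02 A1, pull hw02 A2, pull hw02 A3, pull hw02 A4, pull hw02 A5, hc w02 hw02 A0, hc w02 hw02 A1, hc w02 hw02 A2, hc w02 hw02 A3, hc w02 hw02 A4, hc w02 hw02 A5, hker w02 hw02, mul_one, one_mul] at key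
    simpa using key
  subst h02
  simp only [one_mul] at m02
  refine Cfsg.Agent.FGS4.SchurSylow.stem_false hσ S hz hzo fun t htk ht => ?_
  set T := closure ({A0, A1, A2, A3, A4, A5} : Set Γ) with hT
  have conj_eq : ∀ {X Y W : Γ}, X * X = 1 → Y * X = X * W → X * Y * X = W := fun {X Y W} hX h => by
    rw [mul_assoc, h, ← mul_assoc, hX, one_mul]
  have hcard' : Nat.card T ≤ 64 := by
    have b5 : Nat.card (closure ({A5} : Set Γ)) ≤ 2 := by
      have := Cfsg.Agent.FGS4.SchurSylow.card_closure_insert_le (s := (∅ : Set Γ)) s5 (fun x hx => hx.elim)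
      rwa [insert_empty_eq, Subgroup.closure_empty, Subgroup.card_bot, mul_one] at this
    have b4 := Cfsg.Agent.FGS4.SchurSylow.card_closure_insert_le (s := ({A5} : Set Γ)) s4 (fun x hx => by
      simp only [Set.mem_insert_iff, Set.mem_singleton_iff] at hx
      rcases hx with rfl
      · rw [conj_eq s4 c45]; exact (subset_closure (by simp)))
    have b3 := Cfsg.Agent.FGS4.SchurSylow.card_closure_insert_le (s := ({A4, A5} : Set Γ)) s3 (fun x hx => by
      simp only [Set.mem_insert_iff, Set.mem_singleton_iff] at hx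
      rcases hx with rfl | rfl
      · rw [conj_eq s3 c34]; exact (subset_closure (by simp))
      · rw [conj_eq s3 c35]; exact (subset_closure (by simp)))
    have b2 := Cfsg.Agent.FGS4.SchurSylow.card_closure_insert_le (s := ({A3, A4, A5} : Set Γ)) s2 (fun x hx => by
      simp only [Set.mem_insert_iff, Set.mem_singleton_iff] at hx
      rcases hx with rfl | rfl | rfl
      · rw [conj_eq s2 m23]; exact (mul_mem (subset_closure (by simp)) (subset_closure (by simp)))
      · rw [conj_eq s2 c24]; exact (subset_closure (by simp))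
      · rw [conj_eq s2 c25]; exact (subset_closure (by simp)))
    have b1 := Cfsg.Agent.FGS4.SchurSylow.card_closure_insert_le (s := ({A2, A3, A4, A5} : Set Γ)) s1 (fun x hx => by
      simp only [Set.mem_insert_iff, Set.mem_singleton_iff] at hx
      rcases hx with rfl | rfl | rfl | rfl
      · rw [conj_eq s1 c12]; exact (subset_closure (by simp))
      · rw [conj_eq s1 c13]; exact (subset_closure (by simp))
      · rw [conj_eq s1 c14]; exact (subset_closure (by simp))
      · rw [conj_eq s1 m15]; exact (mul_mem (subset_closure (by simp)) (subset_closure (by simp))))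
    have b0 := Cfsg.Agent.FGS4.SchurSylow.card_closure_insert_le (s := ({A1, A2, A3, A4, A5} : Set Γ)) s0 (fun x hx => by
      simp only [Set.mem_insert_iff, Set.mem_singleton_iff] at hx
      rcases hx with rfl | rfl | rfl | rfl | rfl
      · rw [conj_eq s0 c01]; exact (subset_closure (by simp))
      · rw [conj_eq s0 m02]; exact (mul_mem (subset_closure (by simp)) (mul_mem (subset_closure (by simp)) (subset_closure (by simp))))
      · rw [conj_eq s0 m03]; exact (mul_mem (subset_closure (by simp)) (subset_closure (by simp)))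
      · rw [conj_eq s0 c04]; exact (subset_closure (by simp))
      · rw [conj_eq s0 m05]; exact (mul_mem (subset_closure (by simp)) (mul_mem (subset_closure (by simp)) (mul_mem (subset_closure (by simp)) (subset_closure (by simp))))))
    rw [hT]
    omega
  have himg : T.map σ = (S : Subgroup Q) := by
    rw [hS, hT, MonoidHom.map_closure]
    simp only [Set.image_insert_eq, Set.image_singleton, a0, a1, a2, a3, a4, a5]
  have hbot : ∀ x ∈ T, x ∈ σ.ker → x = 1 := by
    intro x hx hxk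
    let f : T →* Q := σ.comp T.subtype
    have hr : f.range = T.map σ := by
      rw [MonoidHom.range_comp, range_subtype]
    have h1 := f.ker.card_mul_index
    rw [Subgroup.index_ker, hr, himg, hS, hcard] at h1
    have hk : Nat.card f.ker = 1 := by
      have : 0 < Nat.card f.ker := Nat.card_pos
      by_contra hne
      have : 2 * 64 ≤ Nat.card f.ker * 64 := Nat.mul_le_mul_right _ (by omega)
      omega
    have hmem : (⟨x, hx⟩ : T) ∈ f.ker := hxk
    rw [Subgroup.card_eq_one.1 hk, mem_bot] at hmem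
    exact congrArg Subtype.val hmem
  have hle : (S : Subgroup Q).comap σ ≤ T ⊔ σ.ker := by rw [← himg, Subgroup.comap_map_eq]
  have h1 := Cfsg.Agent.FGS4.SchurSylow.commutator_sup_center_le (K := T) hσ.2.1 (commutator_mono hle hle ht)
  exact hbot t (Subgroup.commutator_le_self T h1) htk

end Cfsg.Agent.FGS4.M12Schur
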